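import Cfsg.Agent.Lib.Helper37.U27.Defs
import Cfsg.Agent.Lib.Helper83.X27.Frame27

/-!
# Project U27 (S5999): package [COMM]

A non-abelian subgroup of order 27 and exponent 3 of `GL_3(F)` is generated by `A, B` with
`A B = w B A`, `w` a primitive cube root of unity.  Derived from helper83's `frame27`.
-/

set_option autoImplicit false
open scoped MatrixGroups Matrix

namespace Cfsg.Agent.Lib.Helper4.U27

universe u

theorem pkgComm : Cfsg.Agent.Lib.Helper37.U27.PkgComm.{u} := by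
  intro F _ R w0 hw0 h3 hR hRe hRna
  have hw1 : w0 ≠ 1 := by
    intro h
    rw [h] at hw0
    apply h3
    have : (3 : F) = 1 ^ 2 + 1 + 1 := by norm_num
    rw [this, hw0]
  obtain ⟨l, g, a, b, hl, hl1, ha, hb, hcl, -, -, hc⟩ :=
    Cfsg.Agent.Lib.Helper83.X27.frame27 R hR hRe hRna w0 hw0 hw1
  refine ⟨a, ha, b, hb, l, hl, ?_, hcl.symm⟩
  have h1 : a * b = (a * b * a⁻¹ * b⁻¹) * (b * a) := by group
  have h2 : ((a * b : GL (Fin 3) F) : Matrix (Fin 3) (Fin 3) F) =
      ((a * b * a⁻¹ * b⁻¹ : GL (Fin 3) F) : Matrix (Fin 3) (Fin 3) F) *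
        ((b * a : GL (Fin 3) F) : Matrix (Fin 3) (Fin 3) F) := by
    rw [← Units.val_mul, ← h1]
  rw [hc] at h2
  rw [Units.val_mul, Units.val_mul] at h2
  rw [h2, Matrix.smul_mul, Matrix.one_mul]

end Cfsg.Agent.Lib.Helper4.U27
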