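import Cfsg.Agent.Lib.Helper37.U27.Defs

/-!
# Project U27 (S5999): package [FRAME]

`R` (non-abelian of order 27, exponent 3, inside `GU_3(q)`) is a unitary conjugate of the
standard group `R0 w`.
-/

set_option autoImplicit false
open scoped MatrixGroups Matrix

namespace Cfsg.Agent.Lib.Helper4.U27

open Cfsg.Agent.Lib.Helper37.U27

universe u

theorem cube_root_cases {F : Type u} [Field F] (w α : F) (hw : w ^ 2 + w + 1 = 0)
    (hα : α ^ 3 = 1) : α = w ^ 0 ∨ α = w ^ 1 ∨ α = w ^ 2 := by
  have h : (α - 1) * ((α - w) * (α - w ^ 2)) = 0 := by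
    linear_combination hα + (α - 1) * (w - 1 - α) * hw
  rcases mul_eq_zero.mp h with h | h
  · left; rw [pow_zero]; exact sub_eq_zero.mp h
  · rcases mul_eq_zero.mp h with h | h
    · right; left; rw [pow_one]; exact sub_eq_zero.mp h
    · right; right; exact sub_eq_zero.mp h

theorem pkgFrame_of (hW : PkgW0.{u}) (hC : PkgComm.{u}) (hE : PkgEigV.{u}) (hO : PkgOrtho.{u})
    (hD : PkgR0Diag.{u}) : PkgFrame.{u} := by
  intro F _ _ q R hcard h3q h3 hRle hR hRe hRna
  obtain ⟨w0, hw0⟩ := hW F q hcard h3q
  obtain ⟨A, hA, B, hB, w, hw, hAB, hRcl⟩ := hC F R w0 hw0 h3 hR hRe hRna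
  have hw3 : w ^ 3 = 1 := by linear_combination (w - 1) * hw
  have hA3 : A ^ 3 = 1 := by
    have h := Monoid.pow_exponent_eq_one (⟨A, hA⟩ : R)
    rw [hRe] at h
    have h' := congrArg Subtype.val h
    simpa using h'
  have hB3 : B ^ 3 = 1 := by
    have h := Monoid.pow_exponent_eq_one (⟨B, hB⟩ : R)
    rw [hRe] at h
    have h' := congrArg Subtype.val h
    simpa using h'
  have hA3' : (A : Matrix (Fin 3) (Fin 3) F) ^ 3 = 1 := by
    rw [← Units.val_pow_eq_pow_val, hA3]; rfl
  obtain ⟨v, hv, α, hα, hAv⟩ := hE F (A : Matrix (Fin 3) (Fin 3) F) w hw hA3'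
  obtain ⟨g, hg, hgA, hgB⟩ := hO F q A B w α v hcard h3q (hRle hA) (hRle hB) hw h3 hα hAB hB3 hv hAv
  refine ⟨g, hg, w, hw, ?_⟩
  -- notation
  obtain ⟨a', ha'⟩ : ∃ a' : GL (Fin 3) F, a' = g⁻¹ * A * g := ⟨_, rfl⟩
  obtain ⟨b', hb'⟩ : ∃ b' : GL (Fin 3) F, b' = g⁻¹ * B * g := ⟨_, rfl⟩
  rw [← ha'] at hgA
  rw [← hb'] at hgB
  -- the commutation relation for a', b'
  have hab' : (a' : Matrix (Fin 3) (Fin 3) F) * (b' : Matrix (Fin 3) (Fin 3) F) =
      w • ((b' : Matrix (Fin 3) (Fin 3) F) * (a' : Matrix (Fin 3) (Fin 3) F)) := by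
    have h1 : a' * b' = g⁻¹ * (A * B) * g := by rw [ha', hb']; group
    have h2 : b' * a' = g⁻¹ * (B * A) * g := by rw [ha', hb']; group
    rw [← Units.val_mul, ← Units.val_mul, h1, h2]
    rw [Units.val_mul, Units.val_mul, Units.val_mul, Units.val_mul, Units.val_mul, Units.val_mul,
      hAB, Matrix.mul_smul, Matrix.smul_mul]
  -- the commutator is the scalar w
  obtain ⟨s, hs⟩ : ∃ s : GL (Fin 3) F, s = a' * b' * (b' * a')⁻¹ := ⟨_, rfl⟩
  have hsval : (s : Matrix (Fin 3) (Fin 3) F) = w • (1 : Matrix (Fin 3) (Fin 3) F) := by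
    rw [hs, Units.val_mul, Units.val_mul, hab', ← Units.val_mul, Matrix.smul_mul, ← Units.val_mul,
      mul_inv_cancel]
    rfl
  -- the conjugation map
  have hmem : ∀ y, y ∈ R ↔ g⁻¹ * y * g ∈ Subgroup.closure ({a', b'} : Set (GL (Fin 3) F)) := by
    intro y
    have hmap : R.map (MulAut.conj g⁻¹).toMonoidHom =
        Subgroup.closure ({a', b'} : Set (GL (Fin 3) F)) := by
      rw [hRcl, MonoidHom.map_closure, Set.image_pair]
      congr 2
      · simp [ha']
      · simp [hb']
    rw [← hmap]
    have hinj : Function.Injective (MulAut.conj g⁻¹).toMonoidHom := (MulAut.conj g⁻¹).injective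
    have hy : g⁻¹ * y * g = (MulAut.conj g⁻¹).toMonoidHom y := by simp
    rw [hy, Subgroup.mem_map_iff_mem hinj]
  have hK : Subgroup.closure ({a', b'} : Set (GL (Fin 3) F)) = R0 w := by
    apply le_antisymm
    · rw [Subgroup.closure_le]
      intro x hx
      rcases hx with hx | hx
      · -- a' is diagonal
        rw [hx]
        have hdiag : α • Zm w = Matrix.diagonal ![α, α * w, α * w ^ 2] := by
          unfold Zm
          rw [← Matrix.diagonal_smul]
          congr 1
          ext i; fin_cases i <;> simp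
        refine hD F w a' ![α, α * w, α * w ^ 2] hw h3 ?_ ?_ (hgA.trans hdiag)
        · intro i
          fin_cases i
          · simpa using hα
          · simp only [Fin.mk_one, Fin.isValue, Matrix.cons_val_one, Matrix.cons_val_zero]
            rw [mul_pow, hα, hw3, one_mul]
          · show (α * w ^ 2) ^ 3 = 1
            rw [mul_pow, hα, one_mul, ← pow_mul, mul_comm, pow_mul, hw3, one_pow]
        · show α * (α * w) * (α * w ^ 2) = 1
          have : α * (α * w) * (α * w ^ 2) = α ^ 3 * w ^ 3 := by ring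
          rw [this, hα, hw3, one_mul]
      · rw [Set.mem_singleton_iff] at hx
        rw [hx]
        exact Subgroup.subset_closure (Or.inl hgB)
    · unfold R0
      rw [Subgroup.closure_le]
      intro y hy
      rcases hy with hy | hy
      · have : y = b' := Units.ext (hy.trans hgB.symm)
        rw [this]
        exact Subgroup.subset_closure (by simp)
      · have ha'K : a' ∈ Subgroup.closure ({a', b'} : Set (GL (Fin 3) F)) :=
          Subgroup.subset_closure (by simp)
        have hb'K : b' ∈ Subgroup.closure ({a', b'} : Set (GL (Fin 3) F)) :=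
          Subgroup.subset_closure (by simp)
        have hsK : s ∈ Subgroup.closure ({a', b'} : Set (GL (Fin 3) F)) := by
          rw [hs]
          exact Subgroup.mul_mem _ (Subgroup.mul_mem _ ha'K hb'K)
            (Subgroup.inv_mem _ (Subgroup.mul_mem _ hb'K ha'K))
        have key : ∀ k : ℕ, α = w ^ k → (y : GL (Fin 3) F) ∈
            Subgroup.closure ({a', b'} : Set (GL (Fin 3) F)) := by
          intro k hk
          have h1 : a' = s ^ k * y := by
            apply Units.ext
            rw [Units.val_mul, Units.val_pow_eq_pow_val, hsval, hy, hgA, smul_pow, one_pow,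
              Matrix.smul_mul, Matrix.one_mul, hk]
          have h2 : y = (s ^ k)⁻¹ * a' := by rw [h1]; group
          rw [h2]
          exact Subgroup.mul_mem _ (Subgroup.inv_mem _ (Subgroup.pow_mem _ hsK k)) ha'K
        rcases cube_root_cases w α hw hα with h | h | h
        · exact key 0 h
        · exact key 1 h
        · exact key 2 h
  intro y
  rw [hmem y, hK]

end Cfsg.Agent.Lib.Helper4.U27
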